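import Cfsg.Agent.H192.Dp.Defs
import Cfsg.Agent.H38.Dp.PermCount
import Cfsg.Agent.H38.Dp.PrimeProd
import Cfsg.Agent.S0713

/-!
# Derangements in the alternating groups (helper38, DP13 of the project S5734 of helper192)

`alt_row` : there is `ε > 0` with `ε |A_n| ≤ log |A_n : R| * #ders R` for all `n ≥ 5` and all proper subgroups `R`.
-/

set_option autoImplicit false

namespace Cfsg.Agent.H38.Dp

open Equiv Finset Cfsg.Agent.H192.Dp MulAction
open scoped Pointwise

variable {n : ℕ}

/-! ### Proper subgroups have derangements -/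

/-- a proper subgroup has derangements -/
theorem ders_nonempty {G : Type*} [Group G] [Finite G] {H : Subgroup G} (hH : H ≠ ⊤) : (ders H).Nonempty := by
  classical
  by_contra hcon
  rw [Set.not_nonempty_iff_eq_empty] at hcon
  -- every element has a conjugate in `H`
  have hall : ∀ g : G, ∃ x : G, x * g * x⁻¹ ∈ H := by
    intro g
    by_contra h
    push Not at h
    have : g ∈ ders H := h
    rw [hcon] at this
    exact this
  -- the map `(x H, h ↦ x⁻¹ h x)`
  have : Fintype G := Fintype.ofFinite G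
  let A : Type _ := G ⧸ H
  have hA : Finite A := inferInstance
  -- `G \ {1}` is covered by `|G : H|` sets of size `|H| - 1`
  let S : Finset G := Finset.univ.biUnion fun a : A => (Finset.univ.filter fun g : G => g ≠ 1 ∧
    (Quotient.out a)⁻¹ * g * Quotient.out a ∈ H)
  have hS : ∀ g : G, g ≠ 1 → g ∈ S := by
    intro g hg
    obtain ⟨x, hx⟩ := hall g
    rw [Finset.mem_biUnion]
    refine ⟨(QuotientGroup.mk x⁻¹ : A), Finset.mem_univ _, ?_⟩
    rw [Finset.mem_filter]
    refine ⟨Finset.mem_univ _, hg, ?_⟩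
    obtain ⟨h, hh⟩ := QuotientGroup.mk_out_eq_mul H x⁻¹
    have h1 : Quotient.out (QuotientGroup.mk x⁻¹ : A) = x⁻¹ * h := hh
    rw [h1]
    have h2 : (x⁻¹ * (h : G))⁻¹ * g * (x⁻¹ * h) = (h : G)⁻¹ * (x * g * x⁻¹) * h := by group
    rw [h2]
    exact H.mul_mem (H.mul_mem (H.inv_mem h.2) hx) h.2
  have h1 : Nat.card G - 1 ≤ S.card := by
    have h2 : (Finset.univ.erase (1 : G)) ⊆ S := fun g hg => hS g (Finset.mem_erase.1 hg).1
    have h3 := Finset.card_le_card h2
    rwa [Finset.card_erase_of_mem (Finset.mem_univ _), Finset.card_univ, ← Nat.card_eq_fintype_card] at h3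
  have h2 : S.card ≤ H.index * (Nat.card H - 1) := by
    calc S.card ≤ ∑ a : A, (Finset.univ.filter fun g : G => g ≠ 1 ∧
          (Quotient.out a)⁻¹ * g * Quotient.out a ∈ H).card := Finset.card_biUnion_le
      _ ≤ ∑ _a : A, (Nat.card H - 1) := by
          refine Finset.sum_le_sum fun a _ => ?_
          have h4 : ((Finset.univ : Finset H).erase 1).card = Nat.card H - 1 := by
            rw [Finset.card_erase_of_mem (Finset.mem_univ _), Finset.card_univ, ← Nat.card_eq_fintype_card]
          rw [← h4]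
          refine Finset.card_le_card_of_injOn
            (fun g => if h : (Quotient.out a)⁻¹ * g * Quotient.out a ∈ H then ⟨_, h⟩ else 1) ?_ ?_
          · intro g hg
            rw [Finset.mem_coe, Finset.mem_filter] at hg
            simp only [dif_pos hg.2.2]
            rw [Finset.mem_coe, Finset.mem_erase]
            refine ⟨fun he => hg.2.1 ?_, Finset.mem_univ _⟩
            have h5 : (Quotient.out a)⁻¹ * g * Quotient.out a = 1 := congrArg Subtype.val he
            calc g = Quotient.out a * ((Quotient.out a)⁻¹ * g * Quotient.out a) * (Quotient.out a)⁻¹ := by group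
              _ = 1 := by rw [h5]; group
          · intro g hg g' hg' he
            rw [Finset.mem_coe, Finset.mem_filter] at hg hg'
            simp only [dif_pos hg.2.2, dif_pos hg'.2.2] at he
            have h5 : (Quotient.out a)⁻¹ * g * Quotient.out a = (Quotient.out a)⁻¹ * g' * Quotient.out a :=
              congrArg Subtype.val he
            exact mul_left_cancel (mul_right_cancel h5)
      _ = H.index * (Nat.card H - 1) := by
          rw [Finset.sum_const, Finset.card_univ, smul_eq_mul, Subgroup.index_eq_card,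
            Nat.card_eq_fintype_card (α := G ⧸ H)]
  have h3 : 2 ≤ H.index := by
    have h4 : H.index ≠ 0 := Subgroup.FiniteIndex.index_ne_zero
    have h5 : H.index ≠ 1 := fun h => hH (Subgroup.index_eq_one.1 h)
    omega
  have h4 := Subgroup.card_mul_index H
  have h5 : 0 < Nat.card H := Nat.card_pos
  have h6 : H.index * (Nat.card H - 1) + H.index = Nat.card G := by
    rw [← h4, mul_comm (Nat.card H), ← Nat.mul_succ]
    congr 1
    omega
  omega

/-! ### The intransitive case -/

theorem two_pow_le_centralBinom (k : ℕ) : 2 ^ k ≤ Nat.centralBinom k := by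
  induction k with
  | zero => simp
  | succ k ih =>
    have h1 := Nat.succ_mul_centralBinom_succ k
    have h2 : (k + 1) * (2 * Nat.centralBinom k) ≤ (k + 1) * Nat.centralBinom (k + 1) := by
      rw [h1]
      have : (k + 1) * (2 * Nat.centralBinom k) = (2 * (k + 1)) * Nat.centralBinom k := by ring
      rw [this]
      exact Nat.mul_le_mul_right _ (by omega)
    have h3 := Nat.le_of_mul_le_mul_left h2 (by omega)
    rw [pow_succ]
    omega

theorem two_mul_card_alt (hn : 5 ≤ n) : 2 * Nat.card (alternatingGroup (Fin n)) = n.factorial := by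
  have : Nontrivial (Fin n) := Fin.nontrivial_iff_two_le.2 (by omega)
  rw [two_mul_nat_card_alternatingGroup, Nat.card_perm, Nat.card_fin]

theorem index_intr (hn : 5 ≤ n) {R : Subgroup (alternatingGroup (Fin n))} {k : ℕ} (h2k : 2 * k ≤ n)
    {S : Finset (Fin n)} (hS : S.card = k) (hinv : ∀ g ∈ R, ∀ z ∈ S, (g : Perm (Fin n)) z ∈ S) :
    2 ^ k ≤ 2 * R.index := by
  have : Nontrivial (Fin n) := Fin.nontrivial_iff_two_le.2 (by omega)
  let s : Set.powersetCard (Fin n) k := ⟨S, hS⟩
  have htr : IsPretransitive (Perm (Fin n)) (Set.powersetCard (Fin n) k) := Set.powersetCard.isPretransitive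
  have h1 : (stabilizer (Perm (Fin n)) s).index = n.choose k := by
    rw [MulAction.index_stabilizer_of_transitive, Set.powersetCard.card, Nat.card_fin]
  have h2 : R.map (alternatingGroup (Fin n)).subtype ≤ stabilizer (Perm (Fin n)) s := by
    rintro _ ⟨g, hg, rfl⟩
    rw [mem_stabilizer_iff]
    apply Subtype.ext
    rw [Set.powersetCard.coe_smul]
    apply Finset.eq_of_subset_of_card_le
    · intro z hz
      rw [Finset.mem_smul_finset] at hz
      obtain ⟨y, hy, rfl⟩ := hz
      exact hinv g hg y hy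
    · rw [Finset.card_smul_finset]
  have h3 := Subgroup.index_dvd_of_le h2
  rw [h1, Subgroup.index_map_subtype, alternatingGroup.index_eq_two] at h3
  have h4 : 0 < R.index * 2 := Nat.mul_pos (Nat.pos_of_ne_zero Subgroup.FiniteIndex.index_ne_zero) (by norm_num)
  calc 2 ^ k ≤ Nat.centralBinom k := two_pow_le_centralBinom k
    _ = (2 * k).choose k := rfl
    _ ≤ n.choose k := Nat.choose_le_choose k h2k
    _ ≤ R.index * 2 := Nat.le_of_dvd h4 h3
    _ = _ := mul_comm _ _

theorem card_intr (hn : 5 ≤ n) {R : Subgroup (alternatingGroup (Fin n))} {k : ℕ} (hk : 1 ≤ k) (h2k : 2 * k ≤ n)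
    {S : Finset (Fin n)} (hS : S.card = k) (hinv : ∀ g ∈ R, ∀ z ∈ S, (g : Perm (Fin n)) z ∈ S) :
    Nat.card (alternatingGroup (Fin n)) ≤ 2 * (2 * k + 1) * Nat.card (ders R) := by
  have h1 := factorial_le k n (by omega)
  have h2 := numLong_le (n := n) (k := k) (by omega) hk
  have h3 : Nat.card {σ : alternatingGroup (Fin n) // NoInv k (σ : Perm (Fin n))} ≤ Nat.card (ders R) := by
    refine Nat.card_mono (Set.toFinite _) fun σ hσ => ?_
    change NoInv k (σ : Perm (Fin n)) at hσ
    intro x hx
    -- the set `x⁻¹ S`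
    refine hσ (S.map ((x : Perm (Fin n))⁻¹).toEmbedding) (by rw [Finset.card_map, hS]) fun z hz => ?_
    rw [Finset.mem_map] at hz ⊢
    obtain ⟨y, hy, rfl⟩ := hz
    refine ⟨_, hinv _ hx y hy, ?_⟩
    simp only [Equiv.coe_toEmbedding]
    change ((x : Perm (Fin n))⁻¹) (((x : Perm (Fin n)) * σ * (x : Perm (Fin n))⁻¹) y) = _
    rw [Perm.mul_apply, Perm.mul_apply]
    exact Equiv.symm_apply_apply (x : Perm (Fin n)) _
  have h4 := two_mul_card_alt hn
  have h5 : n.factorial ≤ (2 * k + 1) * (4 * Nat.card (ders R)) :=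
    h1.trans (Nat.mul_le_mul_left _ (h2.trans (Nat.mul_le_mul_left _ h3)))
  have h6 : 2 * Nat.card (alternatingGroup (Fin n)) ≤ 2 * (2 * (2 * k + 1) * Nat.card (ders R)) := by
    rw [h4]
    calc n.factorial ≤ _ := h5
      _ = _ := by ring
  omega

theorem log_two_pos : 0 < Real.log 2 := Real.log_pos (by norm_num)

theorem two_le_index {G : Type*} [Group G] [Finite G] {H : Subgroup G} (hH : H ≠ ⊤) : 2 ≤ H.index := by
  have h4 : H.index ≠ 0 := Subgroup.FiniteIndex.index_ne_zero
  have h5 : H.index ≠ 1 := fun h => hH (Subgroup.index_eq_one.1 h)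
  omega

/-- **The intransitive case.** -/
theorem row_intr (hn : 5 ≤ n) {R : Subgroup (alternatingGroup (Fin n))} (hR : R ≠ ⊤) {k : ℕ} (hk : 1 ≤ k)
    (h2k : 2 * k ≤ n) {S : Finset (Fin n)} (hS : S.card = k)
    (hinv : ∀ g ∈ R, ∀ z ∈ S, (g : Perm (Fin n)) z ∈ S) :
    (Real.log 2 / 12) * Nat.card (alternatingGroup (Fin n)) ≤ Real.log R.index * Nat.card (ders R) := by
  have h1 := index_intr hn h2k hS hinv
  have h2 := card_intr hn hk h2k hS hinv
  have h3 := two_le_index hR
  have hl := log_two_pos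
  have hk' : (1 : ℝ) ≤ k := by exact_mod_cast hk
  -- `k / 2 * log 2 ≤ log index`
  have h4 : (k : ℝ) / 2 * Real.log 2 ≤ Real.log R.index := by
    have h5 : Real.log 2 ≤ Real.log R.index := Real.log_le_log (by norm_num) (by exact_mod_cast h3)
    have h6 : (k : ℝ) * Real.log 2 ≤ Real.log 2 + Real.log R.index := by
      rw [← Real.log_pow, ← Real.log_mul (by norm_num) (by positivity)]
      apply Real.log_le_log (by positivity)
      exact_mod_cast h1
    linarith
  have h5 : (Nat.card (alternatingGroup (Fin n)) : ℝ) ≤ 2 * (2 * k + 1) * Nat.card (ders R) := by exact_mod_cast h2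
  have hD : (0 : ℝ) ≤ Nat.card (ders R) := Nat.cast_nonneg _
  calc (Real.log 2 / 12) * Nat.card (alternatingGroup (Fin n))
      ≤ (Real.log 2 / 12) * (2 * (2 * k + 1) * Nat.card (ders R)) := mul_le_mul_of_nonneg_left h5 (by positivity)
    _ = (Real.log 2 / 6 * (2 * k + 1)) * Nat.card (ders R) := by ring
    _ ≤ ((k : ℝ) / 2 * Real.log 2) * Nat.card (ders R) := by
        apply mul_le_mul_of_nonneg_right _ hD
        nlinarith
    _ ≤ _ := mul_le_mul_of_nonneg_right h4 hD

/-! ### The transitive case -/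

/-- a transitive group containing a `p`-cycle, `p > n / 2`, is primitive -/
theorem prim_of_cycle {p : ℕ} (hp : p.Prime) (h2p : n < 2 * p) (R : Subgroup (Perm (Fin n)))
    [IsPretransitive R (Fin n)] {g : Perm (Fin n)} (hg : g.IsCycle) (hgp : g.support.card = p) (hgR : g ∈ R) :
    IsPreprimitive R (Fin n) := by
  have hord : orderOf g = p := by rw [hg.orderOf, hgp]
  obtain ⟨a, ha, -⟩ := id hg
  refine IsPreprimitive.of_isTrivialBlock_base a fun {B} haB hB => ?_
  let g' : R := ⟨g, hgR⟩
  have hsm : ∀ (i : ℕ) (x : Fin n), (g' ^ i) • x = (g ^ i) x := fun i x => rfl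
  by_cases h1 : g' • B = B
  · right
    -- `B` contains the support
    have h2 : ∀ i : ℕ, (g ^ i) a ∈ B := by
      intro i
      have h3 : g' ^ i • B = B := by
        induction i with
        | zero => rw [pow_zero, one_smul]
        | succ i ih => rw [pow_succ, mul_smul, h1, ih]
      rw [← hsm, ← h3]
      exact Set.smul_mem_smul_set haB
    have h3 : (g.support : Set (Fin n)) ⊆ B := by
      intro x hx
      rw [Finset.mem_coe, Perm.mem_support] at hx
      obtain ⟨i, hi⟩ := hg.exists_pow_eq ha hx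
      rw [← hi]
      exact h2 i
    apply hB.eq_univ_of_card_lt
    have h4 := Set.ncard_le_ncard h3 (Set.toFinite _)
    rw [Set.ncard_coe_finset, hgp] at h4
    rw [Nat.card_fin]
    omega
  · left
    have hdis : ∀ i : ℕ, ¬ p ∣ i → g' ^ i • B ≠ B := by
      intro i hi he
      have hcop : Nat.Coprime i p := ((Nat.Prime.coprime_iff_not_dvd hp).2 hi).symm
      have hpos : ∀ j : ℕ, (g' ^ i) ^ j • B = B := by
        intro j
        induction j with
        | zero => rw [pow_zero, one_smul]
        | succ j ih => rw [pow_succ, mul_smul, he, ih]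
      obtain ⟨j, hj⟩ := exists_pow_eq_self_of_coprime (show Nat.Coprime i (orderOf g') by
        rw [← Subgroup.orderOf_coe, hord]; exact hcop)
      apply h1
      rw [← hj]
      exact hpos j
    have hmoved : ∀ x ∈ B, g x ≠ x := by
      intro x hx he
      have h2 := (isBlock_iff_smul_eq_or_disjoint.1 hB g').resolve_left h1
      refine Set.disjoint_left.1 h2 (?_ : x ∈ g' • B) hx
      refine ⟨x, hx, ?_⟩
      exact he
    intro x hx y hy
    by_contra hxy
    obtain ⟨i, hi⟩ := hg.exists_pow_eq (hmoved x hx) (hmoved y hy)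
    have hpi : ¬ p ∣ i := by
      intro hd
      apply hxy
      rw [← hi, orderOf_dvd_iff_pow_eq_one.1 (hord ▸ hd)]
      rfl
    have h2 := (isBlock_iff_smul_eq_or_disjoint.1 hB (g' ^ i)).resolve_left (hdis i hpi)
    exact Set.disjoint_left.1 h2 ⟨x, hx, hi⟩ hy

theorem map_subtype_ne (hn : 5 ≤ n) {R : Subgroup (alternatingGroup (Fin n))} (hR : R ≠ ⊤) :
    ¬ alternatingGroup (Fin n) ≤ R.map (alternatingGroup (Fin n)).subtype := by
  intro h
  apply hR
  rw [eq_top_iff]
  intro g _
  obtain ⟨g', hg', he⟩ := h g.2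
  have : g' = g := Subtype.ext he
  rwa [← this]

/-- `p` does not divide the order of a transitive proper subgroup, `n / 2 < p ≤ n - 3` -/
theorem not_dvd_card (hn : 5 ≤ n) {R : Subgroup (alternatingGroup (Fin n))} (hR : R ≠ ⊤)
    (ht : ∀ x y : Fin n, ∃ g ∈ R, (g : Perm (Fin n)) x = y) {p : ℕ} (hp : p.Prime) (h2p : n < 2 * p)
    (hp3 : p + 3 ≤ n) : ¬ p ∣ Nat.card R := by
  intro hd
  have := Fact.mk hp
  obtain ⟨g, hg⟩ := exists_prime_orderOf_dvd_card' p hd
  let R' := R.map (alternatingGroup (Fin n)).subtype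
  have hord : orderOf ((g : alternatingGroup (Fin n)) : Perm (Fin n)) = p := by
    rw [Subgroup.orderOf_coe, Subgroup.orderOf_coe, hg]
  have hc : ((g : alternatingGroup (Fin n)) : Perm (Fin n)).IsCycle :=
    Perm.isCycle_of_prime_order' (by rw [hord]; exact hp) (by rw [hord, Fintype.card_fin]; exact h2p)
  have hgR' : ((g : alternatingGroup (Fin n)) : Perm (Fin n)) ∈ R' := ⟨g, g.2, rfl⟩
  have htr : IsPretransitive R' (Fin n) := by
    refine ⟨fun x y => ?_⟩
    obtain ⟨h, hh, hxy⟩ := ht x y
    exact ⟨⟨h, ⟨h, hh, rfl⟩⟩, hxy⟩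
  have hsc : ((g : alternatingGroup (Fin n)) : Perm (Fin n)).support.card = p := by rw [← hc.orderOf, hord]
  have hprim := prim_of_cycle hp h2p R' hc hsc hgR'
  exact map_subtype_ne hn hR (Cfsg.Agent.S0713.result R' hprim hp (by rw [Fintype.card_fin]; exact hn)
    (by rw [Fintype.card_fin]; exact hp3) hc hsc hgR')

/-- `|A_n| ≤ n #ders R`, `R` transitive -/
theorem card_trans (hn : 5 ≤ n) {R : Subgroup (alternatingGroup (Fin n))} {p : ℕ} (hp : p.Prime) (h2p : n < 2 * p)
    (hp3 : p + 3 ≤ n) (hd : ¬ p ∣ Nat.card R) :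
    Nat.card (alternatingGroup (Fin n)) ≤ n * Nat.card (ders R) := by
  have hp2 : 3 ≤ p := by omega
  have hodd : Odd p := hp.odd_of_ne_two (by omega)
  have hsg : ∀ (s : Fin p ↪ Fin n) (τ : alternatingGroup (Fin (n - p))),
      glue s (τ : Perm (Fin (n - p))) ∈ alternatingGroup (Fin n) := by
    intro s τ
    rw [Perm.mem_alternatingGroup, sign_glue, Perm.mem_alternatingGroup.1 τ.2, mul_one]
    apply Even.neg_one_pow
    obtain ⟨c, hc⟩ := hodd
    exact ⟨c, by omega⟩
  let Φ : (Fin p ↪ Fin n) × alternatingGroup (Fin (n - p)) → Fin n × ders R := fun a =>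
    (a.1 ⟨0, hp.pos⟩, ⟨⟨glue a.1 a.2.1, hsg a.1 a.2⟩, fun x hx => hd (by
      -- the order of the element is divisible by `p`
      have h1 : p ∣ orderOf (glue a.1 a.2.1) := by
        rw [← glue_period a.1 a.2.1 hp.pos, pow_orderOf_eq_one]
        rfl
      have h2 : orderOf (x * (⟨glue a.1 a.2.1, hsg a.1 a.2⟩ : alternatingGroup (Fin n)) * x⁻¹) =
          orderOf (glue a.1 a.2.1) := by
        rw [← MulAut.conj_apply, (MulAut.conj x).orderOf_eq, Subgroup.orderOf_mk]
      rw [← h2, ← Subgroup.orderOf_mk _ hx] at h1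
      exact h1.trans (orderOf_dvd_natCard _))⟩)
  have hΦ : Function.Injective Φ := by
    rintro ⟨s, τ⟩ ⟨s', τ'⟩ h
    have h1 : s ⟨0, hp.pos⟩ = s' ⟨0, hp.pos⟩ := congrArg Prod.fst h
    have h2 : glue s (τ : Perm (Fin (n - p))) = glue s' τ' :=
      congrArg (fun b : Fin n × ders R => ((b.2 : alternatingGroup (Fin n)) : Perm (Fin n))) h
    obtain ⟨h3, h4⟩ := glue_inj hp.pos h1 h2
    rw [h3, Subtype.ext h4]
  have h1 := Nat.card_le_card_of_injective Φ hΦ
  rw [Nat.card_prod, Nat.card_prod, Nat.card_fin, Nat.card_eq_fintype_card (α := (Fin p ↪ Fin n)),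
    Fintype.card_embedding_eq, Fintype.card_fin, Fintype.card_fin] at h1
  have : Nontrivial (Fin (n - p)) := Fin.nontrivial_iff_two_le.2 (by omega)
  have h2 : 2 * Nat.card (alternatingGroup (Fin (n - p))) = (n - p).factorial := by
    rw [two_mul_nat_card_alternatingGroup, Nat.card_perm, Nat.card_fin]
  have h3 := two_mul_card_alt hn
  have h4 := Nat.factorial_mul_descFactorial (n := n) (k := p) (by omega)
  have h5 : 2 * Nat.card (alternatingGroup (Fin n)) ≤ 2 * (n * Nat.card (ders R)) := by
    rw [h3, ← h4, ← h2]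
    calc 2 * Nat.card (alternatingGroup (Fin (n - p))) * n.descFactorial p =
          2 * (n.descFactorial p * Nat.card (alternatingGroup (Fin (n - p)))) := by ring
      _ ≤ _ := Nat.mul_le_mul_left _ h1
  omega

/-- the index of a transitive proper subgroup -/
theorem prod_dvd_index (hn : 5 ≤ n) {R : Subgroup (alternatingGroup (Fin n))} (hR : R ≠ ⊤)
    (ht : ∀ x y : Fin n, ∃ g ∈ R, (g : Perm (Fin n)) x = y) : (∏ p ∈ bigPrimes n, p) ∣ R.index := by
  apply Finset.prod_primes_dvd
  · intro p hp
    exact (mem_bigPrimes.1 hp).1.prime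
  · intro p hp
    obtain ⟨h1, h2, h3⟩ := mem_bigPrimes.1 hp
    have h4 : p ∣ 2 * Nat.card (alternatingGroup (Fin n)) := by
      rw [two_mul_card_alt hn]
      exact Nat.dvd_factorial h1.pos (by omega)
    have h5 : p ∣ Nat.card (alternatingGroup (Fin n)) := by
      refine ((h1.dvd_mul).1 h4).resolve_left fun h => ?_
      have := Nat.le_of_dvd (by norm_num) h
      omega
    rw [← Subgroup.card_mul_index R] at h5
    exact ((h1.dvd_mul).1 h5).resolve_left (not_dvd_card hn hR ht h1 h2 h3)

/-- **DP13: the alternating groups.** -/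
theorem alt_row : ∃ ε : ℝ, 0 < ε ∧ ∀ n : ℕ, 5 ≤ n → LogT ε (alternatingGroup (Fin n)) := by
  obtain ⟨N, hN20, hN⟩ := exists_prod_ge
  have hl := log_two_pos
  have hl1 : Real.log 2 < 1 := by
    have := Real.log_two_lt_d9
    linarith
  have hNf : (1 : ℝ) ≤ (N.factorial : ℝ) := by exact_mod_cast Nat.factorial_pos N
  refine ⟨Real.log 2 / (12 * N.factorial), by positivity, fun n hn R hR => ?_⟩
  have hcard0 : (0 : ℝ) ≤ Nat.card (alternatingGroup (Fin n)) := Nat.cast_nonneg _
  have hD : (0 : ℝ) ≤ Nat.card (ders R) := Nat.cast_nonneg _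
  have hsmall : Real.log 2 / (12 * N.factorial) ≤ Real.log 2 / 12 := by
    apply div_le_div_of_nonneg_left hl.le (by norm_num)
    linarith
  by_cases ht : ∀ x y : Fin n, ∃ g ∈ R, (g : Perm (Fin n)) x = y
  · by_cases hnN : N ≤ n
    · -- transitive, `n` large
      have h1 := hN n hnN
      have h2 := prod_dvd_index hn hR ht
      have h3 : (∏ p ∈ bigPrimes n, p) ≤ R.index :=
        Nat.le_of_dvd (Nat.pos_of_ne_zero Subgroup.FiniteIndex.index_ne_zero) h2
      have hpos : 0 < ∏ p ∈ bigPrimes n, p := Finset.prod_pos fun p hp => (mem_bigPrimes.1 hp).1.pos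
      have h4 : (n : ℝ) / 10 ≤ Real.log R.index :=
        h1.trans (Real.log_le_log (by exact_mod_cast hpos) (by exact_mod_cast h3))
      -- a big prime exists
      have hne : (bigPrimes n).Nonempty := by
        rw [Finset.nonempty_iff_ne_empty]
        intro he
        rw [he, Finset.prod_empty, Nat.cast_one, Real.log_one] at h1
        have : (0 : ℝ) < n := by exact_mod_cast (by omega : 0 < n)
        linarith
      obtain ⟨p, hp⟩ := hne
      obtain ⟨hp1, hp2, hp3⟩ := mem_bigPrimes.1 hp
      have h5 := card_trans hn hp1 hp2 hp3 (not_dvd_card hn hR ht hp1 hp2 hp3)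
      have h6 : (Nat.card (alternatingGroup (Fin n)) : ℝ) ≤ n * Nat.card (ders R) := by exact_mod_cast h5
      calc Real.log 2 / (12 * N.factorial) * Nat.card (alternatingGroup (Fin n))
          ≤ 1 / 10 * Nat.card (alternatingGroup (Fin n)) := by
            apply mul_le_mul_of_nonneg_right _ hcard0
            linarith
        _ ≤ 1 / 10 * (n * Nat.card (ders R)) := by linarith
        _ = (n : ℝ) / 10 * Nat.card (ders R) := by ring
        _ ≤ _ := mul_le_mul_of_nonneg_right h4 hD
    · -- `n` small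
      have h1 : Nat.card (alternatingGroup (Fin n)) ≤ N.factorial := by
        have h2 := two_mul_card_alt hn
        have h3 := Nat.factorial_le (show n ≤ N by omega)
        omega
      have h2 : 1 ≤ Nat.card (ders R) := by
        have := (ders_nonempty hR).to_subtype
        exact Nat.card_pos
      have h3 : Real.log 2 ≤ Real.log R.index :=
        Real.log_le_log (by norm_num) (by exact_mod_cast two_le_index hR)
      have h4 : (Nat.card (alternatingGroup (Fin n)) : ℝ) ≤ N.factorial := by exact_mod_cast h1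
      have h5 : (1 : ℝ) ≤ Nat.card (ders R) := by exact_mod_cast h2
      calc Real.log 2 / (12 * N.factorial) * Nat.card (alternatingGroup (Fin n))
          ≤ Real.log 2 / (12 * N.factorial) * N.factorial := mul_le_mul_of_nonneg_left h4 (by positivity)
        _ = Real.log 2 / 12 := by field_simp
        _ ≤ Real.log 2 * 1 := by linarith
        _ ≤ Real.log R.index * Nat.card (ders R) := mul_le_mul h3 h5 (by norm_num) (hl.le.trans h3)
  · -- intransitive
    push Not at ht
    obtain ⟨x, y, hxy⟩ := ht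
    classical
    let O : Finset (Fin n) := Finset.univ.filter fun z => ∃ g ∈ R, (g : Perm (Fin n)) x = z
    have hO : ∀ z, z ∈ O ↔ ∃ g ∈ R, (g : Perm (Fin n)) x = z := fun z => by
      rw [Finset.mem_filter]
      exact ⟨fun h => h.2, fun h => ⟨Finset.mem_univ _, h⟩⟩
    have hOinv : ∀ g ∈ R, ∀ z ∈ O, (g : Perm (Fin n)) z ∈ O := by
      intro g hg z hz
      obtain ⟨h, hh, rfl⟩ := (hO z).1 hz
      exact (hO _).2 ⟨g * h, R.mul_mem hg hh, rfl⟩
    have hOcinv : ∀ g ∈ R, ∀ z ∈ Oᶜ, (g : Perm (Fin n)) z ∈ Oᶜ := by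
      intro g hg z hz
      rw [Finset.mem_compl] at hz ⊢
      intro h
      apply hz
      have h1 := hOinv g⁻¹ (R.inv_mem hg) _ h
      have h2 : ((g⁻¹ : alternatingGroup (Fin n)) : Perm (Fin n)) ((g : Perm (Fin n)) z) = z := by
        change ((g : Perm (Fin n))⁻¹) ((g : Perm (Fin n)) z) = z
        exact Equiv.symm_apply_apply (g : Perm (Fin n)) _
      rwa [h2] at h1
    have hxO : x ∈ O := (hO x).2 ⟨1, R.one_mem, rfl⟩
    have hyO : y ∈ Oᶜ := by
      rw [Finset.mem_compl, hO]
      rintro ⟨g, hg, he⟩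
      exact hxy g hg he
    have hc1 : 1 ≤ O.card := Finset.card_pos.2 ⟨x, hxO⟩
    have hc2 : 1 ≤ Oᶜ.card := Finset.card_pos.2 ⟨y, hyO⟩
    have hc3 : O.card + Oᶜ.card = n := by rw [Finset.card_add_card_compl, Fintype.card_fin]
    have h1 : (Real.log 2 / 12) * Nat.card (alternatingGroup (Fin n)) ≤ Real.log R.index * Nat.card (ders R) := by
      by_cases hle : 2 * O.card ≤ n
      · exact row_intr hn hR hc1 hle rfl hOinv
      · exact row_intr hn hR hc2 (by omega) rfl hOcinv
    exact (mul_le_mul_of_nonneg_right hsmall hcard0).trans h1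

end Cfsg.Agent.H38.Dp
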